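import Mathlib

set_option autoImplicit false
set_option linter.unusedSectionVars false

/-! The "norm" of an element under a finite group of operators, when the conjugates commute. -/

namespace Cfsg.Agent.Lib.Helper55

open Subgroup

theorem noncommProd_univ_equiv {α β : Type*} [Fintype α] [Monoid β] (e : α ≃ α) (f : α → β)
    (c1 : ((Finset.univ : Finset α) : Set α).Pairwise (Function.onFun Commute fun a => f (e a)))
    (c2 : ((Finset.univ : Finset α) : Set α).Pairwise (Function.onFun Commute f)) :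
    Finset.univ.noncommProd (fun a => f (e a)) c1 = Finset.univ.noncommProd f c2 := by
  unfold Finset.noncommProd
  congr 1
  have : (fun a => f (e a)) = f ∘ e := rfl
  rw [this, ← Multiset.map_map f e, Multiset.map_univ_val_equiv]

variable {G : Type*} [Group G] {Ξ : Type*} [Group Ξ] [Fintype Ξ] (σ : Ξ →* G)

theorem commute_conj {g g' : G} (h : ∀ ξ, Commute g (σ ξ * g' * (σ ξ)⁻¹)) (ξ η : Ξ) :
    Commute (σ ξ * g * (σ ξ)⁻¹) (σ η * g' * (σ η)⁻¹) := by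
  have h1 := h (ξ⁻¹ * η)
  have h2 : σ η * g' * (σ η)⁻¹ = σ ξ * (σ (ξ⁻¹ * η) * g' * (σ (ξ⁻¹ * η))⁻¹) * (σ ξ)⁻¹ := by
    rw [map_mul, map_inv]; group
  rw [h2]
  show _ * _ = _ * _
  have h3 : g * (σ (ξ⁻¹ * η) * g' * (σ (ξ⁻¹ * η))⁻¹) = (σ (ξ⁻¹ * η) * g' * (σ (ξ⁻¹ * η))⁻¹) * g := h1
  calc σ ξ * g * (σ ξ)⁻¹ * (σ ξ * (σ (ξ⁻¹ * η) * g' * (σ (ξ⁻¹ * η))⁻¹) * (σ ξ)⁻¹)
      = σ ξ * (g * (σ (ξ⁻¹ * η) * g' * (σ (ξ⁻¹ * η))⁻¹)) * (σ ξ)⁻¹ := by group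
    _ = σ ξ * ((σ (ξ⁻¹ * η) * g' * (σ (ξ⁻¹ * η))⁻¹) * g) * (σ ξ)⁻¹ := by rw [h3]
    _ = _ := by group

theorem nm_comm {g : G} (h : ∀ ξ, Commute g (σ ξ * g * (σ ξ)⁻¹)) (s : Finset Ξ) :
    (s : Set Ξ).Pairwise (Function.onFun Commute fun ξ => σ ξ * g * (σ ξ)⁻¹) :=
  fun ξ _ η _ _ => commute_conj σ h ξ η

/-- the product of all conjugates of `g`. -/
noncomputable def nm (g : G) (h : ∀ ξ, Commute g (σ ξ * g * (σ ξ)⁻¹)) : G :=
  Finset.univ.noncommProd (fun ξ => σ ξ * g * (σ ξ)⁻¹) (nm_comm σ h _)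

variable {σ} {g : G} (h : ∀ ξ, Commute g (σ ξ * g * (σ ξ)⁻¹))

theorem nm_fixed (η : Ξ) : σ η * nm σ g h * (σ η)⁻¹ = nm σ g h := by
  have h1 : σ η * nm σ g h * (σ η)⁻¹ = (MulAut.conj (σ η)) (nm σ g h) := rfl
  rw [h1]
  have h2 : ∀ ξ, (MulAut.conj (σ η)) (σ ξ * g * (σ ξ)⁻¹) =
      σ (Equiv.mulLeft η ξ) * g * (σ (Equiv.mulLeft η ξ))⁻¹ := by
    intro ξ
    rw [MulAut.conj_apply, Equiv.coe_mulLeft, map_mul]
    group
  refine (Finset.map_noncommProd Finset.univ (fun ξ => σ ξ * g * (σ ξ)⁻¹) (nm_comm σ h _)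
    (MulAut.conj (σ η))).trans ?_
  refine (Finset.noncommProd_congr rfl (fun ξ _ => h2 ξ) _).trans ?_
  exact noncommProd_univ_equiv (Equiv.mulLeft η) (fun ξ => σ ξ * g * (σ ξ)⁻¹) _ _

theorem nm_mem (M : Subgroup G) (hM : ∀ ξ, σ ξ * g * (σ ξ)⁻¹ ∈ M) : nm σ g h ∈ M :=
  Subgroup.noncommProd_mem M _ (fun ξ _ => hM ξ)

theorem nm_split {q : ℕ} [Fact q.Prime] (hq : IsPGroup q Ξ) (C : Subgroup G)
    (hC : ∀ ξ, σ ξ * g * (σ ξ)⁻¹ = g ∨ σ ξ * g * (σ ξ)⁻¹ ∈ C) :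
    ∃ j : ℕ, ∃ z ∈ C, nm σ g h = g ^ (q ^ j) * z := by
  classical
  set St : Subgroup Ξ := (centralizer {g}).comap σ with hSt
  have hmem : ∀ ξ, ξ ∈ St ↔ σ ξ * g * (σ ξ)⁻¹ = g := by
    intro ξ
    rw [hSt, mem_comap, mem_centralizer_iff]
    constructor
    · intro h1
      rw [← h1 g rfl, mul_inv_cancel_right]
    · intro h1 y hy
      rw [Set.mem_singleton_iff] at hy
      subst hy
      calc y * σ ξ = (σ ξ * y * (σ ξ)⁻¹) * σ ξ := by rw [h1]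
        _ = σ ξ * y := by group
  obtain ⟨j, hj⟩ := IsPGroup.iff_card.1 (hq.to_subgroup St)
  set Y : Finset Ξ := Finset.univ.filter (fun ξ => ξ ∈ St) with hY
  have hcardY : Y.card = q ^ j := by
    rw [← hj, Nat.card_eq_fintype_card, Fintype.card_subtype]
  have hdisj : Disjoint Y Yᶜ := disjoint_compl_right
  have hun : (Finset.univ : Finset Ξ) = Y ∪ Yᶜ := (Finset.union_compl Y).symm
  have e1 : nm σ g h = (Y ∪ Yᶜ).noncommProd (fun ξ => σ ξ * g * (σ ξ)⁻¹) (nm_comm σ h _) :=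
    Finset.noncommProd_congr hun (fun ξ _ => rfl) _
  have e2 := Finset.noncommProd_union_of_disjoint hdisj (fun ξ => σ ξ * g * (σ ξ)⁻¹)
    (fun ξ _ η _ _ => commute_conj σ h ξ η)
  have e3 : Y.noncommProd (fun ξ => σ ξ * g * (σ ξ)⁻¹) (nm_comm σ h _) = g ^ (q ^ j) := by
    rw [Finset.noncommProd_eq_pow_card _ _ _ g, hcardY]
    intro ξ hξ
    rw [hY, Finset.mem_filter] at hξ
    exact (hmem ξ).1 hξ.2
  refine ⟨j, Yᶜ.noncommProd (fun ξ => σ ξ * g * (σ ξ)⁻¹) (nm_comm σ h _),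
    Subgroup.noncommProd_mem C _ ?_, ?_⟩
  · intro ξ hξ
    rcases hC ξ with h1 | h1
    · exfalso
      rw [Finset.mem_compl, hY, Finset.mem_filter] at hξ
      exact hξ ⟨Finset.mem_univ _, (hmem ξ).2 h1⟩
    · exact h1
  · rw [e1, ← e3]
    exact e2

end Cfsg.Agent.Lib.Helper55
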