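import Cfsg.Agent.Lib.Helper55.Norm

set_option autoImplicit false
set_option linter.unusedSectionVars false

/-! More on norms: multiplicativity, conjugation, projection onto a factor. -/

namespace Cfsg.Agent.Lib.Helper55

open Subgroup

variable {G : Type*} [Group G] {Ξ : Type*} [Group Ξ] [Fintype Ξ] {σ : Ξ →* G}
  {g : G} (h : ∀ ξ, Commute g (σ ξ * g * (σ ξ)⁻¹))

theorem nm_mul {g' : G} (h' : ∀ ξ, Commute g' (σ ξ * g' * (σ ξ)⁻¹))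
    (h2 : ∀ ξ, Commute g' (σ ξ * g * (σ ξ)⁻¹))
    (h'' : ∀ ξ, Commute (g * g') (σ ξ * (g * g') * (σ ξ)⁻¹)) :
    nm σ (g * g') h'' = nm σ g h * nm σ g' h' := by
  have e := Finset.noncommProd_mul_distrib (s := Finset.univ) (fun ξ => σ ξ * g * (σ ξ)⁻¹)
    (fun ξ => σ ξ * g' * (σ ξ)⁻¹) (nm_comm σ h _) (nm_comm σ h' _)
    (fun ξ _ η _ _ => commute_conj σ h2 ξ η)
  refine Eq.trans ?_ e
  exact Finset.noncommProd_congr rfl (fun ξ _ => by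
    rw [Pi.mul_apply]; group) _

theorem nm_conj {d : G} (hd : ∀ ξ, d * σ ξ = σ ξ * d)
    (h' : ∀ ξ, Commute (d * g * d⁻¹) (σ ξ * (d * g * d⁻¹) * (σ ξ)⁻¹)) :
    d * nm σ g h * d⁻¹ = nm σ (d * g * d⁻¹) h' := by
  have h1 : d * nm σ g h * d⁻¹ = (MulAut.conj d) (nm σ g h) := rfl
  rw [h1]
  refine (Finset.map_noncommProd Finset.univ (fun ξ => σ ξ * g * (σ ξ)⁻¹) (nm_comm σ h _)
    (MulAut.conj d)).trans ?_
  refine Finset.noncommProd_congr rfl (fun ξ _ => ?_) _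
  rw [MulAut.conj_apply]
  have h3 : (σ ξ)⁻¹ * d⁻¹ = d⁻¹ * (σ ξ)⁻¹ := by
    rw [← mul_inv_rev, ← mul_inv_rev, hd ξ]
  calc d * (σ ξ * g * (σ ξ)⁻¹) * d⁻¹ = (d * σ ξ) * g * ((σ ξ)⁻¹ * d⁻¹) := by group
    _ = _ := by rw [hd ξ, h3]; group

variable (σ) in
/-- the norm as a homomorphism on a subgroup all of whose conjugates commute. -/
noncomputable def nmHom (U : Subgroup G)
    (hU : ∀ u ∈ U, ∀ u' ∈ U, ∀ ξ, Commute u (σ ξ * u' * (σ ξ)⁻¹)) : ↥U →* G :=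
  MonoidHom.mk' (fun u => nm σ u.1 (fun ξ => hU u u.2 u u.2 ξ)) (fun u u' =>
    nm_mul (fun ξ => hU u u.2 u u.2 ξ) (fun ξ => hU u' u'.2 u' u'.2 ξ)
      (fun ξ => hU u' u'.2 u u.2 ξ) (fun ξ => hU (u * u') (u * u').2 (u * u') (u * u').2 ξ))

theorem nmHom_apply (U : Subgroup G)
    (hU : ∀ u ∈ U, ∀ u' ∈ U, ∀ ξ, Commute u (σ ξ * u' * (σ ξ)⁻¹)) (u : ↥U) :
    nmHom σ U hU u = nm σ u.1 (fun ξ => hU u u.2 u u.2 ξ) := rfl

/-- projection of `Y ≤ E C` onto `E`. -/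
theorem exists_proj {E C Y : Subgroup G} (hEC : E ≤ normalizer (C : Set G)) (hinf : E ⊓ C = ⊥)
    (hY : ∀ y ∈ Y, ∃ e ∈ E, e⁻¹ * y ∈ C) (hsurj : ∀ e ∈ E, ∃ y ∈ Y, e⁻¹ * y ∈ C) :
    ∃ Ψ : ↥Y →* ↥E, Function.Surjective Ψ ∧ ∀ y : ↥Y, Ψ y = 1 ↔ (y : G) ∈ C := by
  classical
  choose f hfE hfC using hY
  have huniq : ∀ (y e e' : G), e ∈ E → e' ∈ E → e⁻¹ * y ∈ C → e'⁻¹ * y ∈ C → e = e' := by
    intro y e e' he he' h1 h2
    have h3 : e⁻¹ * e' ∈ E ⊓ C := mem_inf.2 ⟨E.mul_mem (E.inv_mem he) he', by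
      have : e⁻¹ * e' = (e⁻¹ * y) * (e'⁻¹ * y)⁻¹ := by group
      rw [this]; exact C.mul_mem h1 (C.inv_mem h2)⟩
    rw [hinf, mem_bot] at h3
    exact inv_mul_eq_one.1 h3
  let Ψ : ↥Y →* ↥E := MonoidHom.mk' (fun y => ⟨f y y.2, hfE y y.2⟩) (by
    intro y y'
    apply Subtype.ext
    refine huniq (y * y' : G) _ _ (hfE _ (y * y').2) (mul_mem (hfE y y.2) (hfE y' y'.2))
      (hfC _ (y * y').2) ?_
    have h1 : (f y y.2 * f y' y'.2)⁻¹ * (y * y' : G) =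
        ((f y' y'.2)⁻¹ * ((f y y.2)⁻¹ * y) * ((f y' y'.2)⁻¹)⁻¹) * ((f y' y'.2)⁻¹ * y') := by group
    show (f y y.2 * f y' y'.2)⁻¹ * (y * y' : G) ∈ C
    rw [h1]
    exact mul_mem ((mem_normalizer_iff.1 (hEC (inv_mem (hfE y' y'.2))) _).1 (hfC y y.2))
      (hfC y' y'.2))
  refine ⟨Ψ, ?_, ?_⟩
  · rintro ⟨e, he⟩
    obtain ⟨y, hy, hey⟩ := hsurj e he
    exact ⟨⟨y, hy⟩, Subtype.ext (huniq y _ _ (hfE y hy) he (hfC y hy) hey)⟩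
  · intro y
    constructor
    · intro h1
      have h2 : f y y.2 = 1 := congrArg Subtype.val h1
      have h3 := hfC y y.2
      rwa [h2, inv_one, one_mul] at h3
    · intro h1
      exact Subtype.ext (huniq y _ _ (hfE y y.2) (one_mem E) (hfC y y.2)
        (by show (1 : G)⁻¹ * y ∈ C
            rwa [inv_one, one_mul]))

end Cfsg.Agent.Lib.Helper55
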