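import Cfsg.Agent.Lib.Helper55.FF6

set_option autoImplicit false
set_option linter.unusedSectionVars false

/-! Offenders and normal `p'`-subgroups: an elementary abelian `A` maximising `|B| |C_V(B)|`
is generated by `C_A(L)` and by subgroups `T` of order `p` with `[L, T]` of prime power order. -/

namespace Cfsg.Agent.Lib.Helper55

open Cfsg Subgroup
open scoped commutatorElement Pointwise
open Cfsg.Agent.Lib.Helper14 (IsElementaryAbelian.comm IsElementaryAbelian.isPGroup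
  IsElementaryAbelian.mono isElementaryAbelian_iff)

variable {G : Type*} [Group G]

/-- Subgroups of elementary abelian groups have complements. -/
theorem exists_compl_elemAb [Finite G] {p : ℕ} [hp : Fact p.Prime] {A : Subgroup G}
    (hA : IsElementaryAbelian p A) :
    ∀ (n : ℕ) (B : Subgroup G), B ≤ A → Nat.card ↥A - Nat.card ↥B = n →
      ∃ C : Subgroup G, C ≤ A ∧ B ⊓ C = ⊥ ∧ B ⊔ C = A := by
  intro n
  induction n using Nat.strong_induction_on with
  | _ n ih =>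
  intro B hBA hn
  by_cases hB : B = A
  · exact ⟨⊥, bot_le, inf_bot_eq _, by rw [sup_bot_eq, hB]⟩
  obtain ⟨a, haA, haB⟩ := SetLike.not_le_iff_exists.1 (fun h => hB (le_antisymm hBA h))
  have hB'A : B ⊔ zpowers a ≤ A := sup_le hBA (zpowers_le.2 haA)
  have hlt : B < B ⊔ zpowers a :=
    lt_of_le_of_ne le_sup_left (fun h => haB (h ▸ (le_sup_right : zpowers a ≤ B ⊔ zpowers a)
      (mem_zpowers a)))
  have h1 := Helper14.card_lt_card_of_lt hlt
  have h2 : Nat.card ↥(B ⊔ zpowers a) ≤ Nat.card ↥A := card_le_of_le hB'A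
  obtain ⟨C, hCA, hC1, hC2⟩ := ih (Nat.card ↥A - Nat.card ↥(B ⊔ zpowers a)) (by omega)
    (B ⊔ zpowers a) hB'A rfl
  refine ⟨zpowers a ⊔ C, sup_le (zpowers_le.2 haA) hCA, ?_, by rw [← sup_assoc, hC2]⟩
  have ha1 : a ≠ 1 := fun h => haB (h ▸ B.one_mem)
  have hord : orderOf a = p := by
    have h3 : orderOf a ∣ p := orderOf_dvd_of_pow_eq_one (hA.2 a haA)
    rcases (Nat.dvd_prime hp.out).1 h3 with h4 | h4
    · exact absurd (orderOf_eq_one_iff.1 h4) ha1
    · exact h4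
  have hza : B ⊓ zpowers a = ⊥ := by
    rcases eq_bot_or_eq_of_le_of_card_prime (p := p) (P := zpowers a) (X := B ⊓ zpowers a)
      (by rw [Nat.card_zpowers, hord]) inf_le_right with h3 | h3
    · exact h3
    · have h4 : a ∈ B ⊓ zpowers a := by rw [h3]; exact mem_zpowers a
      exact absurd h4.1 haB
  rw [eq_bot_iff]
  rintro x ⟨hxB, hx2⟩
  obtain ⟨t, ht, c, hc, rfl⟩ := (Helper14.mem_sup_of_commute
    (fun t ht c hc => IsElementaryAbelian.comm hA (zpowers_le.2 haA ht) (hCA hc))).1 hx2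
  have hc1 : c ∈ (B ⊔ zpowers a) ⊓ C := by
    refine mem_inf.2 ⟨?_, hc⟩
    have : c = t⁻¹ * (t * c) := by group
    rw [this]
    exact mul_mem (inv_mem ((le_sup_right : zpowers a ≤ B ⊔ zpowers a) ht))
      ((le_sup_left : B ≤ B ⊔ zpowers a) hxB)
  rw [hC1, mem_bot] at hc1
  subst hc1
  rw [mul_one] at hxB ⊢
  have : t ∈ B ⊓ zpowers a := ⟨hxB, ht⟩
  rwa [hza] at this

theorem centralizer_sup_eq (X Y : Subgroup G) :
    centralizer ((X ⊔ Y : Subgroup G) : Set G) =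
      centralizer (X : Set G) ⊓ centralizer (Y : Set G) := by
  apply le_antisymm
  · exact le_inf (centralizer_le (le_sup_left : X ≤ X ⊔ Y)) (centralizer_le (le_sup_right : Y ≤ X ⊔ Y))
  · rintro x ⟨hx1, hx2⟩
    have h : X ⊔ Y ≤ centralizer {x} := by
      refine sup_le (fun a ha => ?_) (fun a ha => ?_)
      · rw [mem_centralizer_singleton_iff]
        exact mem_centralizer_iff.1 hx1 a ha
      · rw [mem_centralizer_singleton_iff]
        exact mem_centralizer_iff.1 hx2 a ha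
    rw [mem_centralizer_iff]
    intro a ha
    exact mem_centralizer_singleton_iff.1 (h ha)

/-- The `FFS` configuration attached to a complement `A₁` of `C_A(L)` in `A`. -/
theorem ffs_of_compl [Finite G] {p : ℕ} [hp : Fact p.Prime] {V X A A₁ L : Subgroup G}
    (hV : IsElementaryAbelian p V) (hXV : X ≤ normalizer (V : Set G))
    (hf : X ⊓ centralizer (V : Set G) = ⊥) (hAX : A ≤ X) (hA : IsElementaryAbelian p A)
    (hLX : L ≤ X) (hAL : A ≤ normalizer (L : Set G)) (hLp : (Nat.card ↥L).Coprime p)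
    (hA₁ : A₁ ≤ A) (hinf : (A ⊓ centralizer (L : Set G)) ⊓ A₁ = ⊥) :
    FFS p (V ⊓ centralizer ((A ⊓ centralizer (L : Set G) : Subgroup G) : Set G)) (L ⊔ A₁) L := by
  set A₀ := A ⊓ centralizer (L : Set G) with hA₀
  set V₀ := V ⊓ centralizer (A₀ : Set G) with hV₀
  have hA₀A : A₀ ≤ A := inf_le_left
  have hLA₀ : L ≤ centralizer (A₀ : Set G) := le_centralizer_iff.1 inf_le_right
  have hA₁A₀ : A₁ ≤ centralizer (A₀ : Set G) := hA₁.trans (le_centralizer_of_elemAb hA hA₀A)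
  have hHX : L ⊔ A₁ ≤ X := sup_le hLX (hA₁.trans hAX)
  have hHC : L ⊔ A₁ ≤ centralizer (A₀ : Set G) := sup_le hLA₀ hA₁A₀
  have hHV : L ⊔ A₁ ≤ normalizer (V₀ : Set G) := by
    intro h hh
    rw [mem_normalizer_iff]
    intro x
    rw [hV₀, mem_inf, mem_inf, mem_normalizer_iff.1 (hXV (hHX hh)) x,
      mem_normalizer_iff.1 (le_normalizer (hHC hh)) x]
  have hHL : L ⊔ A₁ ≤ normalizer (L : Set G) := sup_le le_normalizer (hA₁.trans hAL)
  have hCK : (L ⊔ A₁) ⊓ centralizer (L : Set G) ≤ L := by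
    rintro x ⟨hx1, hx2⟩
    obtain ⟨l, hl, a, ha, rfl⟩ := (Helper14.mem_sup_of_le_normalizer (hA₁.trans hAL)).1 hx1
    have hc1 : l * (l * a) = (l * a) * l := mem_centralizer_iff.1 hx2 l hl
    have hc : Commute l a := by
      have : l * (l * a) = l * (a * l) := by rw [hc1]; group
      exact mul_left_cancel this
    have hpow : (l * a) ^ Nat.card ↥L = a ^ Nat.card ↥L := by
      rw [hc.mul_pow]
      have : l ^ Nat.card ↥L = 1 := by
        have := pow_card_eq_one' (G := ↥L) (x := ⟨l, hl⟩)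
        exact congrArg Subtype.val this
      rw [this, one_mul]
    have h1 : a ^ Nat.card ↥L ∈ A₀ ⊓ A₁ := by
      refine mem_inf.2 ⟨mem_inf.2 ⟨A.pow_mem (hA₁ ha) _, ?_⟩, A₁.pow_mem ha _⟩
      rw [← hpow]
      exact pow_mem hx2 _
    rw [hinf, mem_bot] at h1
    have h2 : orderOf a ∣ Nat.card ↥L := orderOf_dvd_of_pow_eq_one h1
    have h3 : orderOf a ∣ p := orderOf_dvd_of_pow_eq_one (hA.2 a (hA₁ ha))
    have h4 : a = 1 := orderOf_eq_one_iff.1 (Nat.eq_one_of_dvd_coprimes hLp h2 h3)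
    rw [h4, mul_one]
    exact hl
  have hLf : L ⊓ centralizer (V₀ : Set G) = ⊥ := by
    rw [eq_bot_iff]
    rintro y ⟨hyL, hyC⟩
    have hyo : (orderOf y).Coprime p :=
      Nat.Coprime.coprime_dvd_left (orderOf_dvd_natCard (⟨y, hyL⟩ : ↥L) |> fun h => by
        rwa [Subgroup.orderOf_mk] at h) hLp
    have hyV := Helper14.thompson_AxB A₀ y ((IsElementaryAbelian.isPGroup hA).to_le hA₀A) hyo
      (hLA₀ hyL) V (IsElementaryAbelian.isPGroup hV) (hXV (hLX hyL))
      ((hA₀A.trans hAX).trans hXV) hyC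
    have : y ∈ X ⊓ centralizer (V : Set G) := ⟨hLX hyL, hyV⟩
    rwa [hf] at this
  refine ⟨IsElementaryAbelian.mono hV inf_le_left, hHV, ?_, le_sup_left, hHL, hLp, hCK⟩
  rw [eq_bot_iff]
  rintro c ⟨hcH, hcC⟩
  have hcL : c ∈ centralizer (L : Set G) := by
    rw [mem_centralizer_iff]
    intro l hl
    have h1 : c * l * c⁻¹ * l⁻¹ ∈ L ⊓ centralizer (V₀ : Set G) := by
      refine mem_inf.2 ⟨mul_mem ((mem_normalizer_iff.1 (hHL hcH) l).1 hl) (inv_mem hl), ?_⟩
      have h2 : l * c⁻¹ * l⁻¹ ∈ centralizer (V₀ : Set G) :=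
        (mem_normalizer_iff.1 (normalizer_le_normalizer_centralizer' V₀
          (hHV ((le_sup_left : L ≤ L ⊔ A₁) hl))) c⁻¹).1 (inv_mem hcC)
      have : c * l * c⁻¹ * l⁻¹ = c * (l * c⁻¹ * l⁻¹) := by group
      rw [this]
      exact mul_mem hcC h2
    rw [hLf, mem_bot] at h1
    calc l * c = (c * l * c⁻¹ * l⁻¹)⁻¹ * (c * l) := by group
      _ = c * l := by rw [h1, inv_one, one_mul]
  have : c ∈ L ⊓ centralizer (V₀ : Set G) := ⟨hCK ⟨hcH, hcL⟩, hcC⟩
  rwa [hLf] at this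

theorem offComp_core {Γ : Type*} [Group Γ] [Finite Γ] {p : ℕ} [Fact p.Prime] {V G A L : Subgroup Γ}
    (hV : IsElementaryAbelian p V) (hGV : G ≤ normalizer (V : Set Γ))
    (hf : G ⊓ centralizer (V : Set Γ) = ⊥)
    (hAG : A ≤ G) (hA : IsElementaryAbelian p A)
    (hP : ∀ B : Subgroup Γ, B ≤ A → Nat.card ↥B * Nat.card ↥(V ⊓ centralizer (B : Set Γ)) ≤
      Nat.card ↥A * Nat.card ↥(V ⊓ centralizer (A : Set Γ)))
    (hLG : L ≤ G) (hAL : A ≤ normalizer (L : Set Γ)) (hLp : (Nat.card ↥L).Coprime p)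
    (P : Subgroup Γ) (h0 : A ⊓ centralizer (L : Set Γ) ≤ P)
    (h1 : ∀ T : Subgroup Γ, T ≤ A → (∃ r : ℕ, r.Prime ∧ IsPGroup r ↥⁅L, T⁆) → T ≤ P) : A ≤ P := by
  obtain ⟨A₁, hA₁A, hinf, hsup⟩ := exists_compl_elemAb hA _ (A ⊓ centralizer (L : Set Γ))
    inf_le_left rfl
  have F := ffs_of_compl hV hGV hf hAG hA hLG hAL hLp hA₁A hinf
  set A₀ := A ⊓ centralizer (L : Set Γ) with hA₀
  set V₀ := V ⊓ centralizer (A₀ : Set Γ) with hV₀
  have hA₀A : A₀ ≤ A := inf_le_left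
  have hE₁ : IsElementaryAbelian p A₁ := IsElementaryAbelian.mono hA hA₁A
  have hA₁H : A₁ ≤ L ⊔ A₁ := le_sup_right
  have hcv : V₀ ⊓ centralizer (A₁ : Set Γ) = V ⊓ centralizer (A : Set Γ) := by
    rw [hV₀, inf_assoc, ← centralizer_sup_eq, hsup]
  have hcard : Nat.card ↥A = Nat.card ↥A₀ * Nat.card ↥A₁ := by
    have h2 := Helper12.card_sup_mul_card_inf' A₀ A₁
      ((hA₀A.trans (le_centralizer_of_elemAb hA hA₁A)).trans (centralizer_le_normalizer _))
    rwa [hsup, hinf, card_bot, mul_one] at h2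
  have hbest : IsBestOffenderOn p V₀ A₁ := by
    rw [F.bestOffender_iff hA₁H]
    refine ⟨hE₁, le_antisymm (F.card_mul_le hA₁H hE₁) ?_⟩
    have h2 := hP A₀ hA₀A
    rw [hcard, ← hcv, mul_assoc] at h2
    exact Nat.le_of_mul_le_mul_left h2 Nat.card_pos
  have hgen := F.le_iSup_minOff _ A₁ rfl hA₁H hbest
  rw [← hsup]
  refine sup_le h0 (hgen.trans (iSup₂_le fun T hT => ?_))
  refine h1 T (hT.1.trans hA₁A) ?_
  obtain ⟨x, hx, hxT⟩ := FFS.MinOff.exists_not_centralizing F hT.2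
  have Pr : Pair p V₀ (L ⊔ A₁) L T x := ⟨F, hT.2, hx, hxT⟩
  rcases Pr.prime_le_three with rfl | rfl
  · exact ⟨3, Nat.prime_three, FFS.MinOff.commutator_isPGroup F hT.2 (k := 1) Nat.prime_three
      (by norm_num)⟩
  · exact ⟨2, Nat.prime_two, FFS.MinOff.commutator_isPGroup F hT.2 (k := 3) Nat.prime_two
      (by norm_num)⟩

end Cfsg.Agent.Lib.Helper55
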