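import Cfsg.Agent.Lib.Helper55.RelSN
import Cfsg.Agent.Lib.Helper55.FF5
import Cfsg.Agent.S0597
import Cfsg.Agent.S0590

set_option autoImplicit false
set_option linter.unusedSectionVars false

namespace Cfsg.Agent.Lib.Helper55

open Cfsg Subgroup
open scoped commutatorElement
open Cfsg.Agent.Lib.Helper30 (cj)

variable {G : Type*} [Group G]

theorem cj_le_normalizer_cj {A U : Subgroup G} (h : A ≤ normalizer (U : Set G)) (g : G) :
    cj g A ≤ normalizer ((cj g U : Subgroup G) : Set G) := by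
  rintro _ ⟨y, hy, rfl⟩
  apply Helper30.mem_normalizer_of_cj_eq
  show cj (g * y * g⁻¹) (cj g U) = cj g U
  rw [← Helper30.cj_mul]
  have : g * y * g⁻¹ * g = g * y := by group
  rw [this, Helper30.cj_mul, Helper30.cj_eq_of_mem_normalizer (h hy)]

theorem cj_bot (g : G) : cj g (⊥ : Subgroup G) = ⊥ := Subgroup.map_bot _

theorem cj_centralizer (g : G) (U : Subgroup G) :
    cj g (centralizer (U : Set G)) = centralizer ((cj g U : Subgroup G) : Set G) :=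
  Helper14.map_conj_centralizer U g

/-- The commutator map with `g` is injective on `X` if `X ∩ X^g = 1`. -/
theorem delta_card [Finite G] {X Y : Subgroup G} {g : G} (hXY : ∀ u ∈ X, g * u * g⁻¹ * u⁻¹ ∈ Y)
    (hdisj : X ⊓ cj g X = ⊥) : Nat.card ↥X ≤ Nat.card ↥Y ∧
      (Nat.card ↥X = Nat.card ↥Y → ∀ w ∈ Y, ∃ u ∈ X, w = g * u * g⁻¹ * u⁻¹) := by
  let f : ↥X → ↥Y := fun u => ⟨g * u * g⁻¹ * (u : G)⁻¹, hXY u u.2⟩
  have hf : Function.Injective f := by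
    intro u u' h
    have h1 : g * (u : G) * g⁻¹ * (u : G)⁻¹ = g * (u' : G) * g⁻¹ * (u' : G)⁻¹ :=
      congrArg Subtype.val h
    have h2 : g * ((u' : G)⁻¹ * u) * g⁻¹ = (u' : G)⁻¹ * u := by
      calc g * ((u' : G)⁻¹ * u) * g⁻¹
          = (g * (u' : G) * g⁻¹)⁻¹ * (g * (u : G) * g⁻¹ * (u : G)⁻¹) * u := by group
        _ = _ := by rw [h1]; group
    have h3 : (u' : G)⁻¹ * u ∈ X ⊓ cj g X := by
      refine mem_inf.2 ⟨X.mul_mem (X.inv_mem u'.2) u.2, ?_⟩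
      rw [← h2]
      exact Helper30.conj_mem_cj (X.mul_mem (X.inv_mem u'.2) u.2)
    rw [hdisj, mem_bot] at h3
    apply Subtype.ext
    calc (u : G) = u' * ((u' : G)⁻¹ * u) := by group
      _ = u' := by rw [h3, mul_one]
  refine ⟨Nat.card_le_card_of_injective f hf, fun hc w hw => ?_⟩
  obtain ⟨u, hu⟩ := ((Nat.bijective_iff_injective_and_card f).2 ⟨hf, hc⟩).2 ⟨w, hw⟩
  exact ⟨u, u.2, (congrArg Subtype.val hu).symm⟩

theorem le_centralizer_of_comm {V X Y : Subgroup G} (hXV : X ≤ normalizer (V : Set G))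
    (hYV : Y ≤ normalizer (V : Set G)) (hc : ⁅X, Y⁆ = ⊥) (hd : ⁅V, X⁆ ⊓ ⁅V, Y⁆ = ⊥) :
    Y ≤ centralizer ((⁅V, X⁆ : Subgroup G) : Set G) := by
  have hYX : Y ≤ normalizer (X : Set G) := by
    rw [commutator_comm, commutator_eq_bot_iff_le_centralizer] at hc
    exact hc.trans (centralizer_le_normalizer _)
  have h1 : ⁅⁅V, X⁆, Y⁆ ≤ ⁅V, X⁆ ⊓ ⁅V, Y⁆ :=
    le_inf (Helper30.commutator_le_of_le_normalizer (Helper30.le_normalizer_commutator hYV hYX))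
      (commutator_mono (Helper30.commutator_le_of_le_normalizer hXV) le_rfl)
  rw [hd, le_bot_iff, commutator_comm, commutator_eq_bot_iff_le_centralizer] at h1
  exact h1

/-- The hypotheses of K-S 9.3.5. -/
structure SPair (p : ℕ) (V E E₁ E₂ : Subgroup G) : Prop where
  hV : IsElementaryAbelian p V
  hEV : E ≤ normalizer (V : Set G)
  hf : E ⊓ centralizer (V : Set G) = ⊥
  hgen : E = E₁ ⊔ E₂
  hs₁ : SN E₁ E
  hs₂ : SN E₂ E
  hOp : ∀ P : Subgroup G, SN P E → IsPGroup p ↥P → P = ⊥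
  hirr₁ : ∀ U : Subgroup G, U ≤ ⁅V, E₁⁆ → E₁ ≤ normalizer (U : Set G) → U = ⊥ ∨ U = ⁅V, E₁⁆
  hirr₂ : ∀ U : Subgroup G, U ≤ ⁅V, E₂⁆ → E₂ ≤ normalizer (U : Set G) → U = ⊥ ∨ U = ⁅V, E₂⁆
  h12 : ¬ ⁅V, E₁⁆ ≤ ⁅V, E₂⁆
  h21 : ¬ ⁅V, E₂⁆ ≤ ⁅V, E₁⁆
  hc₁ : 2 < Nat.card ↥E₁
  hc₂ : 2 < Nat.card ↥E₂

namespace SPair

variable [Finite G] {p : ℕ} [hp : Fact p.Prime] {V E E₁ E₂ : Subgroup G}

theorem symm (S : SPair p V E E₁ E₂) : SPair p V E E₂ E₁ :=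
  ⟨S.hV, S.hEV, S.hf, by rw [sup_comm]; exact S.hgen, S.hs₂, S.hs₁, S.hOp, S.hirr₂, S.hirr₁,
    S.h21, S.h12, S.hc₂, S.hc₁⟩

theorem isPGroup_of_quad (S : SPair p V E E₁ E₂) {N : Subgroup G} (hNE : N ≤ E)
    (hq : ⁅⁅V, N⁆, N⁆ = ⊥) : IsPGroup p ↥N := by
  have h1 := (Cfsg.Agent.S0590.result V N S.hV (hNE.trans S.hEV) hq).2
  intro n
  refine ⟨1, ?_⟩
  rw [pow_one]
  apply Subtype.ext
  rw [Subgroup.coe_pow, Subgroup.coe_one]
  have h2 : (n : G) ^ p ∈ E ⊓ centralizer (V : Set G) :=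
    mem_inf.2 ⟨E.pow_mem (hNE n.2) p, h1 n n.2⟩
  rwa [S.hf, mem_bot] at h2

theorem E₁_ne_bot (S : SPair p V E E₁ E₂) : E₁ ≠ ⊥ := by
  intro h
  have := S.hc₁
  rw [h, card_bot] at this
  omega

theorem hE₁V (S : SPair p V E E₁ E₂) : E₁ ≤ normalizer (V : Set G) := S.hs₁.le.trans S.hEV

theorem W₁_le (S : SPair p V E E₁ E₂) : ⁅V, E₁⁆ ≤ V :=
  Helper30.commutator_le_of_le_normalizer S.hE₁V

theorem cW₁ (S : SPair p V E E₁ E₂) : ⁅V, E₁⁆ ⊓ centralizer (E₁ : Set G) = ⊥ := by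
  have hN : E₁ ≤ normalizer ((⁅V, E₁⁆ ⊓ centralizer (E₁ : Set G) : Subgroup G) : Set G) :=
    Helper30.le_normalizer_inf (normalizer_commutator_ge_right V E₁)
      (le_normalizer.trans (normalizer_le_normalizer_centralizer' E₁))
  rcases S.hirr₁ _ inf_le_left hN with h | h
  · exact h
  · exfalso
    have h1 : ⁅V, E₁⁆ ≤ centralizer (E₁ : Set G) := inf_eq_left.1 h
    have h2 : ⁅⁅V, E₁⁆, E₁⁆ = ⊥ := commutator_eq_bot_iff_le_centralizer.2 h1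
    exact S.E₁_ne_bot (S.hOp _ S.hs₁ (S.isPGroup_of_quad S.hs₁.le h2))

theorem cE₁ (S : SPair p V E E₁ E₂) :
    E₁ ⊓ centralizer ((⁅V, E₁⁆ : Subgroup G) : Set G) = ⊥ := by
  set N := E₁ ⊓ centralizer ((⁅V, E₁⁆ : Subgroup G) : Set G) with hN
  have h1 : ⁅⁅V, N⁆, N⁆ = ⊥ := by
    rw [commutator_eq_bot_iff_le_centralizer]
    refine (commutator_mono le_rfl (inf_le_left : N ≤ E₁)).trans ?_
    exact le_centralizer_iff.1 inf_le_right
  have h2 : SN N E := by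
    refine (SN.of_normal inf_le_left ?_).trans S.hs₁
    exact Helper30.le_normalizer_inf le_normalizer
      ((normalizer_commutator_ge_right V E₁).trans (normalizer_le_normalizer_centralizer' _))
  exact S.hOp _ h2 (S.isPGroup_of_quad h2.le h1)

theorem of_normalizes (S : SPair p V E E₁ E₂)
    (h : E₂ ≤ normalizer ((⁅V, E₁⁆ : Subgroup G) : Set G)) :
    ⁅E₁, E₂⁆ = ⊥ ∧ ⁅V, E₁⁆ ⊓ ⁅V, E₂⁆ = ⊥ := by
  have hd : ⁅V, E₁⁆ ⊓ ⁅V, E₂⁆ = ⊥ := by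
    rcases S.hirr₂ _ inf_le_right
      (Helper30.le_normalizer_inf h (normalizer_commutator_ge_right V E₂)) with h1 | h1
    · exact h1
    · exact absurd (inf_eq_right.1 h1) S.h21
  refine ⟨?_, hd⟩
  have h1 : ⁅⁅V, E₁⁆, E₂⁆ = ⊥ := by
    rw [eq_bot_iff, ← hd]
    exact le_inf (Helper30.commutator_le_of_le_normalizer h) (commutator_mono S.W₁_le le_rfl)
  have h2 := Cfsg.Agent.S0597.result V E S.hV S.hEV S.hf E₁ E₂ S.hs₁.le S.hs₂.le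
    S.hs₁.isSubnormal S.hs₂.isSubnormal h1
  have h3 : (Cfsg.pCore p ↥E).map E.subtype = ⊥ := by
    apply S.hOp
    · have hc : (Cfsg.pCore p ↥E).Characteristic := Helper28.pCore_characteristic p
      exact SN.of_isSubnormal' (Subgroup.normal_of_characteristic _).isSubnormal
    · exact (Helper28.pCore_isPGroup p).map _
  rwa [h3, le_bot_iff] at h2

/-- The induction hypothesis. -/
def IH (p : ℕ) (V E : Subgroup G) : Prop :=
  ∀ E' F₁ F₂ : Subgroup G, Nat.card ↥E' < Nat.card ↥E → SPair p V E' F₁ F₂ →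
    ⁅F₁, F₂⁆ = ⊥ ∧ ⁅V, F₁⁆ ⊓ ⁅V, F₂⁆ = ⊥

theorem cj_W (S : SPair p V E E₁ E₂) {g : G} (hg : g ∈ E) (F : Subgroup G) :
    cj g ⁅V, F⁆ = ⁅V, cj g F⁆ := by
  rw [Helper30.cj_commutator, Helper30.cj_eq_of_mem_normalizer (S.hEV hg)]

theorem E₁_ne (S : SPair p V E E₁ E₂) : E₁ ≠ E := by
  intro h
  apply S.h21
  exact commutator_mono le_rfl (h ▸ S.hs₂.le)

theorem dich (S : SPair p V E E₁ E₂) (ih : IH p V E) {g : G} (hg : g ∈ E)
    (hgN : g ∉ normalizer ((⁅V, E₁⁆ : Subgroup G) : Set G)) :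
    ⁅E₁, cj g E₁⁆ = ⊥ ∧ ⁅V, E₁⁆ ⊓ ⁅V, cj g E₁⁆ = ⊥ := by
  have hW := S.cj_W hg E₁
  have hne : ⁅V, cj g E₁⁆ ≠ ⁅V, E₁⁆ := by
    intro h
    rw [← hW] at h
    exact hgN (Helper30.mem_normalizer_of_cj_eq h)
  obtain ⟨N, hN1, hN2, hN3⟩ := S.hs₁.exists_normal S.E₁_ne
  have hcj : cj g E₁ ≤ N := by
    have := Helper30.cj_mono g hN1
    rwa [Helper30.cj_eq_of_mem_normalizer (hN3 hg)] at this
  have hE'N : E₁ ⊔ cj g E₁ ≤ N := sup_le hN1 hcj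
  have hE'E : E₁ ⊔ cj g E₁ ≤ E := hE'N.trans hN2.le
  have hs₃ : SN (cj g E₁) E := S.hs₁.conj_mem hg
  have hsE' : SN (E₁ ⊔ cj g E₁) E := S.hs₁.sup hs₃
  have hcard : Nat.card ↥⁅V, cj g E₁⁆ = Nat.card ↥⁅V, E₁⁆ := by rw [← hW, Helper30.card_cj]
  apply ih (E₁ ⊔ cj g E₁) E₁ (cj g E₁)
    (Helper14.card_lt_card_of_lt (lt_of_le_of_lt hE'N hN2))
  refine ⟨S.hV, hE'E.trans S.hEV, le_bot_iff.1 (S.hf ▸ inf_le_inf_right _ hE'E), rfl,
    S.hs₁.mono le_sup_left hE'E, hs₃.mono le_sup_right hE'E,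
    fun P hP hPp => S.hOp P (hP.trans hsE') hPp, S.hirr₁, ?_, ?_, ?_, S.hc₁, ?_⟩
  · intro U hU hUN
    have h1 : cj g⁻¹ U ≤ ⁅V, E₁⁆ := by
      have := Helper30.cj_mono g⁻¹ hU
      rwa [← hW, Helper30.cj_inv_cj] at this
    have h2 : E₁ ≤ normalizer ((cj g⁻¹ U : Subgroup G) : Set G) := by
      have := cj_le_normalizer_cj hUN g⁻¹
      rwa [Helper30.cj_inv_cj] at this
    rcases S.hirr₁ _ h1 h2 with h3 | h3
    · left
      have := congrArg (cj g) h3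
      rwa [Helper30.cj_cj_inv, cj_bot] at this
    · right
      have := congrArg (cj g) h3
      rwa [Helper30.cj_cj_inv, hW] at this
  · intro h
    exact hne (eq_of_le_of_card_ge h (by rw [hcard])).symm
  · intro h
    exact hne (eq_of_le_of_card_ge h (by rw [hcard]))
  · rw [Helper30.card_cj]; exact S.hc₁

theorem cj_le_NV (S : SPair p V E E₁ E₂) {g : G} (hg : g ∈ E) :
    cj g E₁ ≤ normalizer (V : Set G) := (S.hs₁.conj_mem hg).le.trans S.hEV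

theorem cent₁ (S : SPair p V E E₁ E₂) (ih : IH p V E) {g : G} (hg : g ∈ E)
    (hgN : g ∉ normalizer ((⁅V, E₁⁆ : Subgroup G) : Set G)) :
    cj g E₁ ≤ centralizer ((⁅V, E₁⁆ : Subgroup G) : Set G) :=
  le_centralizer_of_comm S.hE₁V (S.cj_le_NV hg) (S.dich ih hg hgN).1 (S.dich ih hg hgN).2

theorem cent₂ (S : SPair p V E E₁ E₂) (ih : IH p V E) {g : G} (hg : g ∈ E)
    (hgN : g ∉ normalizer ((⁅V, E₁⁆ : Subgroup G) : Set G)) :
    E₁ ≤ centralizer ((cj g ⁅V, E₁⁆ : Subgroup G) : Set G) := by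
  rw [S.cj_W hg]
  refine le_centralizer_of_comm (S.cj_le_NV hg) S.hE₁V ?_ ?_
  · rw [commutator_comm]; exact (S.dich ih hg hgN).1
  · rw [inf_comm]; exact (S.dich ih hg hgN).2

theorem disj (S : SPair p V E E₁ E₂) (ih : IH p V E) {g : G} (hg : g ∈ E)
    (hgN : g ∉ normalizer ((⁅V, E₁⁆ : Subgroup G) : Set G)) :
    ⁅V, E₁⁆ ⊓ cj g ⁅V, E₁⁆ = ⊥ := by
  rw [S.cj_W hg]; exact (S.dich ih hg hgN).2

theorem contra (S : SPair p V E E₁ E₂) (ih : IH p V E)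
    (hn₁ : ¬ E₂ ≤ normalizer ((⁅V, E₁⁆ : Subgroup G) : Set G))
    (hn₂ : ¬ E₁ ≤ normalizer ((⁅V, E₂⁆ : Subgroup G) : Set G)) : False := by
  obtain ⟨x₀, hx₀, hx₀N⟩ := SetLike.not_le_iff_exists.1 hn₁
  obtain ⟨e, he, heN⟩ := SetLike.not_le_iff_exists.1 hn₂
  have heE : e ∈ E := S.hs₁.le he
  have hE₂E := S.hs₂.le
  set W₁ := ⁅V, E₁⁆ with hW₁
  set W₂ := ⁅V, E₂⁆ with hW₂
  have hW₁V : W₁ ≤ V := S.W₁_le
  have hW₂V : W₂ ≤ V := S.symm.W₁_le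
  have d₁ : ∀ y ∈ E₂, ∀ u ∈ W₁, y * u * y⁻¹ * u⁻¹ ∈ W₂ := fun y hy u hu =>
    conj_mul_inv_mem_commutator (hW₁V hu) hy
  have d₂ : ∀ u ∈ W₂, e * u * e⁻¹ * u⁻¹ ∈ W₁ := fun u hu =>
    conj_mul_inv_mem_commutator (hW₂V hu) he
  have c1 := (delta_card (d₁ x₀ hx₀) (S.disj ih (hE₂E hx₀) hx₀N)).1
  have c2 := (delta_card d₂ (S.symm.disj ih heE heN)).1
  have hcard : Nat.card ↥W₁ = Nat.card ↥W₂ := le_antisymm c1 c2
  have sur : ∀ y ∈ E₂, y ∉ normalizer (W₁ : Set G) → ∀ u ∈ W₂, ∃ w ∈ W₁, u = y * w * y⁻¹ * w⁻¹ :=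
    fun y hy hyN => (delta_card (d₁ y hy) (S.disj ih (hE₂E hy) hyN)).2 hcard
  have sur_e : ∀ w ∈ W₁, ∃ u ∈ W₂, w = e * u * e⁻¹ * u⁻¹ :=
    (delta_card d₂ (S.symm.disj ih heE heN)).2 hcard.symm
  have hdisj_e : W₂ ⊓ cj e W₂ = ⊥ := S.symm.disj ih heE heN
  -- (i)
  have hW12 : W₁ ⊓ W₂ = ⊥ := by
    rw [eq_bot_iff]
    rintro w ⟨hw1, hw2⟩
    obtain ⟨u, hu, rfl⟩ := sur_e w hw1
    have h1 : e * u * e⁻¹ ∈ W₂ ⊓ cj e W₂ := by
      refine mem_inf.2 ⟨?_, Helper30.conj_mem_cj hu⟩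
      have : e * u * e⁻¹ = (e * u * e⁻¹ * u⁻¹) * u := by group
      rw [this]
      exact W₂.mul_mem hw2 hu
    rw [hdisj_e, mem_bot] at h1
    have hu1 : u = 1 := by
      calc u = e⁻¹ * (e * u * e⁻¹) * e := by group
        _ = 1 := by rw [h1]; group
    rw [mem_bot, hu1]; group
  -- (ii)
  have hN₂ : ∀ n ∈ E₂, n ∈ normalizer (W₁ : Set G) → n = 1 := by
    intro n hn hnN
    have h1 : n ∈ E₂ ⊓ centralizer (W₂ : Set G) := by
      refine mem_inf.2 ⟨hn, ?_⟩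
      rw [mem_centralizer_iff]
      intro u hu
      have hw := d₂ u hu
      have hnw := (mem_normalizer_iff.1 hnN _).1 hw
      have hc : (e * u * e⁻¹) * n = n * (e * u * e⁻¹) :=
        (mem_centralizer_iff.1 (S.symm.cent₂ ih heE heN hn)) _ (Helper30.conj_mem_cj hu)
      have ht : u * (n * u⁻¹ * n⁻¹) = (e * u * e⁻¹ * u⁻¹)⁻¹ * (n * (e * u * e⁻¹ * u⁻¹) * n⁻¹) := by
        calc u * (n * u⁻¹ * n⁻¹) = u * (e * u * e⁻¹)⁻¹ * ((e * u * e⁻¹) * n) * u⁻¹ * n⁻¹ := by group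
          _ = u * (e * u * e⁻¹)⁻¹ * (n * (e * u * e⁻¹)) * u⁻¹ * n⁻¹ := by rw [hc]
          _ = _ := by group
      have ht1 : u * (n * u⁻¹ * n⁻¹) ∈ W₁ ⊓ W₂ := by
        refine mem_inf.2 ⟨?_, ?_⟩
        · rw [ht]; exact W₁.mul_mem (W₁.inv_mem hw) hnw
        · exact W₂.mul_mem hu
            ((mem_normalizer_iff.1 (normalizer_commutator_ge_right V E₂ hn) _).1 (W₂.inv_mem hu))
      rw [hW12, mem_bot] at ht1
      calc u * n = (u * (n * u⁻¹ * n⁻¹)) * (n * u) := by group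
        _ = n * u := by rw [ht1, one_mul]
    rwa [S.symm.cE₁, mem_bot] at h1
  -- (iii)
  have hW₂1 : W₂ ≠ ⊥ := by
    intro h
    apply S.h21
    rw [← hW₂, h]
    exact bot_le
  obtain ⟨⟨u, hu⟩, hu1⟩ := Subgroup.ne_bot_iff_exists_ne_one.1 hW₂1
  have hu1' : u ≠ 1 := fun h => hu1 (Subtype.ext h)
  have huniq : ∀ x ∈ E₂, ∀ y ∈ E₂, x ≠ 1 → y ≠ 1 → x = y := by
    intro x hx y hy hx1 hy1
    by_contra hxy
    have hxN : x ∉ normalizer (W₁ : Set G) := fun h => hx1 (hN₂ x hx h)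
    have hyN : y ∉ normalizer (W₁ : Set G) := fun h => hy1 (hN₂ y hy h)
    have hyx : y⁻¹ * x ∈ E₂ := E₂.mul_mem (E₂.inv_mem hy) hx
    have hyxN : y⁻¹ * x ∉ normalizer (W₁ : Set G) := by
      intro h
      apply hxy
      have := hN₂ _ hyx h
      calc x = y * (y⁻¹ * x) := by group
        _ = y := by rw [this, mul_one]
    obtain ⟨w, hw, huw⟩ := sur x hx hxN u hu
    obtain ⟨w', hw', huw'⟩ := sur y hy hyN u hu
    have k1 : W₁ ≤ centralizer ((cj y E₁ : Subgroup G) : Set G) :=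
      le_centralizer_iff.1 (S.cent₁ ih (hE₂E hy) hyN)
    have k2 : cj x W₁ ≤ centralizer ((cj y E₁ : Subgroup G) : Set G) := by
      have h1 := S.cent₂ ih (hE₂E hyx) hyxN
      have h2 := Helper30.cj_mono y (le_centralizer_iff.1 h1)
      rw [← Helper30.cj_mul, cj_centralizer] at h2
      have : y * (y⁻¹ * x) = x := by group
      rwa [this] at h2
    have k3 : y * w' * y⁻¹ ∈ centralizer ((cj y E₁ : Subgroup G) : Set G) := by
      have : y * w' * y⁻¹ = (x * w * x⁻¹) * (w⁻¹ * w') := by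
        calc y * w' * y⁻¹ = (y * w' * y⁻¹ * w'⁻¹) * w' := by group
          _ = (x * w * x⁻¹ * w⁻¹) * w' := by rw [← huw', huw]
          _ = _ := by group
      rw [this]
      exact mul_mem (k2 (Helper30.conj_mem_cj hw)) (k1 (W₁.mul_mem (W₁.inv_mem hw) hw'))
    have k4 : y * w' * y⁻¹ ∈ cj y (W₁ ⊓ centralizer (E₁ : Set G)) := by
      rw [Helper30.cj_inf, cj_centralizer]
      exact mem_inf.2 ⟨Helper30.conj_mem_cj hw', k3⟩
    rw [S.cW₁, cj_bot, mem_bot] at k4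
    apply hu1'
    rw [huw']
    have hw'1 : w' = 1 := by
      calc w' = y⁻¹ * (y * w' * y⁻¹) * y := by group
        _ = 1 := by rw [k4]; group
    rw [hw'1]; group
  -- conclusion
  have hx₀1 : x₀ ≠ 1 := by
    intro h
    exact hx₀N (h ▸ one_mem _)
  have hsq : x₀ ^ 2 = 1 := by
    by_contra h
    have := huniq _ (E₂.pow_mem hx₀ 2) x₀ hx₀ h hx₀1
    apply hx₀1
    calc x₀ = x₀⁻¹ * x₀ ^ 2 := by group
      _ = 1 := by rw [this]; group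
  have hle : E₂ ≤ zpowers x₀ := by
    intro y hy
    by_cases hy1 : y = 1
    · rw [hy1]; exact one_mem _
    · rw [huniq y hy x₀ hx₀ hy1 hx₀1]; exact mem_zpowers x₀
  have h1 := card_le_of_le hle
  rw [Nat.card_zpowers] at h1
  have h2 : orderOf x₀ ≤ 2 := orderOf_le_of_pow_eq_one (by norm_num) hsq
  have := S.hc₂
  omega

theorem core : ∀ (n : ℕ) (E E₁ E₂ : Subgroup G), Nat.card ↥E = n → SPair p V E E₁ E₂ →
    ⁅E₁, E₂⁆ = ⊥ ∧ ⁅V, E₁⁆ ⊓ ⁅V, E₂⁆ = ⊥ := by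
  intro n
  induction n using Nat.strong_induction_on with
  | _ n ih =>
  intro E E₁ E₂ hn S
  have ih' : IH p V E := fun E' F₁ F₂ hlt S' => ih _ (hn ▸ hlt) E' F₁ F₂ rfl S'
  by_cases h1 : E₂ ≤ normalizer ((⁅V, E₁⁆ : Subgroup G) : Set G)
  · exact S.of_normalizes h1
  by_cases h2 : E₁ ≤ normalizer ((⁅V, E₂⁆ : Subgroup G) : Set G)
  · obtain ⟨a, b⟩ := S.symm.of_normalizes h2
    exact ⟨by rw [commutator_comm]; exact a, by rw [inf_comm]; exact b⟩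
  · exact (S.contra ih' h1 h2).elim

end SPair

end Cfsg.Agent.Lib.Helper55
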